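import Cfsg.Agent.BaumannFactor.Offender
import Cfsg.Agent.Cores.Fitting
import Cfsg.Agent.PSolv.HallHigmanDual
import Cfsg.Agent.Subnormal.Join
import Cfsg.Agent.Linear.SmallIso
import Cfsg.Agent.S0617

/-! Solvable groups with `F = O₂`: the normal closure of `J(T)` modulo the core of `C(Z(T))`. -/

set_option autoImplicit false
set_option linter.style.haveILetI false
set_option maxHeartbeats 1000000

open Subgroup
open scoped commutatorElement

namespace Cfsg.Agent.BaumannFactor

variable {X : Type*} [Group X]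

/-- Odd order elements centralising `Ω₁` of an abelian `2`-group centralise it. -/
theorem commute_of_fix_omega {V : Subgroup X} (hV : IsMulCommutative V) (hVp : IsPGroup 2 V)
    {y : X} (hyV : y ∈ normalizer (V : Set X)) {m : ℕ} (hm : Odd m) (hy : y ^ m = 1)
    (hfix : ∀ w ∈ V, w ^ 2 = 1 → y * w * y⁻¹ = w) : ∀ v ∈ V, y * v * y⁻¹ = v := by
  suffices key : ∀ k : ℕ, ∀ v ∈ V, v ^ 2 ^ k = 1 → y * v * y⁻¹ = v by
    intro v hv
    obtain ⟨k, hk⟩ := hVp ⟨v, hv⟩
    exact key k v hv (congrArg Subtype.val hk)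
  intro k
  induction k with
  | zero =>
    intro v hv h1
    rw [pow_zero, pow_one] at h1
    subst h1
    simp
  | succ k ih =>
    intro v hv hk
    have h2 : y * v ^ 2 * y⁻¹ = v ^ 2 := ih _ (pow_mem hv 2) (by rw [← pow_mul, ← pow_succ', hk])
    have hc : y * v * y⁻¹ ∈ V := (mem_normalizer_iff.1 hyV v).1 hv
    set w := y * v * y⁻¹ * v⁻¹ with hw
    have hwV : w ∈ V := mul_mem hc (inv_mem hv)
    have hw2 : w ^ 2 = 1 := by
      have hcom : Commute (y * v * y⁻¹) v⁻¹ := Modules.comm_iff.1 hV _ hc _ (inv_mem hv)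
      rw [hw, hcom.mul_pow, conj_pow, h2, inv_pow, mul_inv_cancel]
    have hn : ∀ n : ℕ, y ^ n * v * (y ^ n)⁻¹ = w ^ n * v := by
      intro n
      induction n with
      | zero => simp
      | succ n ihn =>
        calc y ^ (n + 1) * v * (y ^ (n + 1))⁻¹ = y * (y ^ n * v * (y ^ n)⁻¹) * y⁻¹ := by
              rw [pow_succ']; group
          _ = (y * w ^ n * y⁻¹) * (y * v * y⁻¹) := by rw [ihn]; group
          _ = w ^ (n + 1) * v := by
              rw [← conj_pow, hfix w hwV hw2, show y * v * y⁻¹ = w * v by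
                rw [hw, inv_mul_cancel_right], ← mul_assoc, ← pow_succ]
    have hwm := hn m
    rw [hy, one_mul, inv_one, mul_one, eq_comm, mul_eq_right] at hwm
    have hw1 : w = 1 := by
      rw [← orderOf_eq_one_iff]
      exact Nat.eq_one_of_dvd_coprimes hm.coprime_two_right (orderOf_dvd_of_pow_eq_one hwm)
        (orderOf_dvd_of_pow_eq_one hw2)
    rw [hw, mul_inv_eq_one] at hw1
    exact hw1

theorem main [Finite X] [Group.IsSolvable X] (hF : Cfsg.fittingSubgroup X = Cfsg.pCore 2 X)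
    (T : Sylow 2 X) :
    ((Subgroup.centralizer (((T : Subgroup X) ⊓ Subgroup.centralizer ((T : Subgroup X) : Set X) : Subgroup X) : Set X)).normalCore
        ⊔ Subgroup.normalClosure (Cfsg.thompsonSubgroupAOf (T : Subgroup X) : Set X)
        ⊔ Subgroup.normalizer (Cfsg.thompsonSubgroupAOf (T : Subgroup X) : Set X) = ⊤) ∧
    (Subgroup.normalClosure (Cfsg.thompsonSubgroupAOf (T : Subgroup X) : Set X)
        ≤ (Subgroup.centralizer (((T : Subgroup X) ⊓ Subgroup.centralizer ((T : Subgroup X) : Set X) : Subgroup X) : Set X)).normalCore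
      ∨ ∃ n : ℕ, 1 ≤ n ∧
        Nonempty (↥(Subgroup.normalClosure (Cfsg.thompsonSubgroupAOf (T : Subgroup X) : Set X)) ⧸
            ((Subgroup.centralizer (((T : Subgroup X) ⊓ Subgroup.centralizer ((T : Subgroup X) : Set X) : Subgroup X) : Set X)).normalCore).subgroupOf
              (Subgroup.normalClosure (Cfsg.thompsonSubgroupAOf (T : Subgroup X) : Set X))
          ≃* (Fin n → Equiv.Perm (Fin 3)))) := by
  classical
  haveI : Fact (Nat.Prime 2) := ⟨Nat.prime_two⟩
  set Z : Subgroup X := (T : Subgroup X) ⊓ centralizer ((T : Subgroup X) : Set X) with hZ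
  set C := (centralizer (Z : Set X)).normalCore with hC
  set J := Cfsg.thompsonSubgroupAOf (T : Subgroup X) with hJ
  set Y := normalClosure (J : Set X) with hY
  haveI hCn : C.Normal := normalCore_normal _
  haveI hYn : Y.Normal := normalClosure_normal
  have hJT : J ≤ (T : Subgroup X) := Modules.thompsonSubgroupAOf_le _
  -- the first assertion
  refine ⟨?_, ?_⟩
  · set N := C ⊔ Y with hN
    haveI hNn : N.Normal := sup_normal C Y
    obtain ⟨P, hP⟩ := SubnormalLib.exists_sylow_inf (Subgroup.Normal.isSubnormal hNn) T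
    have hfr := Sylow.normalizer_sup_eq_top P
    rw [sup_comm, eq_top_iff, ← hfr]
    refine sup_le (le_sup_of_le_left ?_) le_sup_right
    rw [show ((P : Subgroup ↥N).map N.subtype) = (T : Subgroup X) ⊓ N by
      rw [hP, subgroupOf_map_subtype]]
    refine (Modules.normalizer_le_normalizer_thompsonSubgroupAOf _).trans (le_of_eq ?_)
    rw [Modules.thompsonSubgroupAOf_eq_of_le inf_le_left
      (le_inf hJT ((subset_normalClosure : (J : Set X) ⊆ Y).trans (le_sup_right : Y ≤ N)))]
  -- the action on the abelian normal closure of the centre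
  set Q := Cfsg.pCore 2 X with hQ
  have hCQ : centralizer (Q : Set X) ≤ Q := by
    rw [← hF]; exact Cores.centralizer_fittingSubgroup_le
  have hQT : Q ≤ (T : Subgroup X) := Cores.pCore_le_sylow T
  haveI hQn : Q.Normal := inferInstance
  have hQQ : (Q ⊓ centralizer (Q : Set X)).Normal := normal_inf_normal _ _
  set V := normalClosure (Z : Set X) with hV
  haveI hVn : V.Normal := normalClosure_normal
  have hVQ : V ≤ Q ⊓ centralizer (Q : Set X) := by
    haveI := hQQ
    refine normalClosure_le_normal fun z hz => ?_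
    have hzC : z ∈ centralizer (Q : Set X) := centralizer_le hQT (mem_inf.1 hz).2
    exact ⟨hCQ hzC, hzC⟩
  have hVc : IsMulCommutative V := Modules.comm_iff.2 fun a ha b hb =>
    (mem_centralizer_iff.1 (hVQ hb).2 a (hVQ ha).1)
  have hVp : IsPGroup 2 V := Cores.pCore_isPGroup.to_le (hVQ.trans inf_le_left)
  let W : Subgroup X :=
    { carrier := {v | v ∈ V ∧ v ^ 2 = 1}
      one_mem' := ⟨one_mem V, one_pow 2⟩
      mul_mem' := fun {a b} ha hb => ⟨mul_mem ha.1 hb.1, by
        rw [(show Commute a b from Modules.comm_iff.1 hVc a ha.1 b hb.1).mul_pow, ha.2, hb.2,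
          one_mul]⟩
      inv_mem' := fun {a} ha => ⟨inv_mem ha.1, by rw [inv_pow, ha.2, inv_one]⟩ }
  have hWV : W ≤ V := fun w hw => hw.1
  have hWe : Cfsg.IsElementaryAbelian 2 W := ⟨Modules.comm_mono hWV hVc, fun w hw => hw.2⟩
  haveI hWn : W.Normal := ⟨fun w hw g => ⟨hVn.conj_mem w hw.1 g, by rw [conj_pow, hw.2]; group⟩⟩
  have hCV : C ≤ centralizer (V : Set X) := by
    refine le_centralizer_iff.1 (normalClosure_le_normal fun z hz => ?_)
    exact mem_centralizer_iff.2 fun c hc =>
      (mem_centralizer_iff.1 (normalCore_le _ hc) z hz).symm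
  have hCW : C ≤ centralizer (W : Set X) := hCV.trans (centralizer_le hWV)
  -- normal subgroups that are 2-groups modulo C lie in C
  have hclaim : ∀ N : Subgroup X, N.Normal → (∀ x ∈ N, ∃ k, x ^ 2 ^ k ∈ C) → C ≤ N → N ≤ C := by
    intro N hNn hN hCN
    haveI := hNn
    refine normal_le_normalCore.2 fun x hx => ?_
    have hM : IsPGroup 2 (N.map (QuotientGroup.mk' C)) := by
      rintro ⟨_, n, hn, rfl⟩
      obtain ⟨k, hk⟩ := hN n hn
      refine ⟨k, Subtype.ext ?_⟩
      rw [SubmonoidClass.coe_pow, ← map_pow]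
      exact (QuotientGroup.eq_one_iff _).2 hk
    have hmem : QuotientGroup.mk' C x ∈ ((T.mapSurjective (QuotientGroup.mk'_surjective C) :
        Sylow 2 (X ⧸ C)) : Subgroup (X ⧸ C)) :=
      Cores.pCore_le_sylow _ (Cores.le_pCore (hNn.map _ (QuotientGroup.mk'_surjective C)) hM
        (mem_map_of_mem _ hx))
    rw [Sylow.coe_mapSurjective] at hmem
    obtain ⟨t, ht, htx⟩ := hmem
    have hc : t⁻¹ * x ∈ C := QuotientGroup.eq.1 htx
    have : t * (t⁻¹ * x) ∈ centralizer (Z : Set X) := mul_mem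
      (mem_centralizer_iff.2 fun z hz => ((mem_centralizer_iff.1 (mem_inf.1 hz).2 t ht)).symm)
      (normalCore_le _ hc)
    rwa [mul_inv_cancel_left] at this
  have hCeq : centralizer (W : Set X) = C := by
    refine le_antisymm (hclaim _ inferInstance (fun x hx => ?_) hCW) hCW
    obtain ⟨a, b, hb, hab⟩ : ∃ a b, Odd b ∧ orderOf x = 2 ^ a * b := by
      obtain ⟨a, b, hb, hab⟩ := Nat.exists_eq_pow_mul_and_not_dvd (orderOf_pos x).ne' 2 (by norm_num)
      exact ⟨a, b, Nat.odd_iff.2 (Nat.two_dvd_ne_zero.1 hb), hab⟩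
    refine ⟨a, normal_le_normalCore.2 (le_centralizer_iff.1 ?_) (?_ : x ^ 2 ^ a ∈ centralizer (V : Set X))⟩
    · exact fun z hz => mem_centralizer_iff.2 fun c hc =>
        (mem_centralizer_iff.1 hc z (subset_normalClosure hz)).symm
    · set y := x ^ 2 ^ a with hy
      have hy1 : y ^ b = 1 := by rw [hy, ← pow_mul, ← hab, pow_orderOf_eq_one]
      have hfix := commute_of_fix_omega hVc hVp (y := y)
        (by rw [normalizer_eq_top]; exact mem_top y) hb hy1 (fun w hw hw2 => by
          rw [mul_inv_eq_iff_eq_mul]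
          exact (mem_centralizer_iff.1 (pow_mem hx _) w ⟨hw, hw2⟩).symm)
      exact mem_centralizer_iff.2 fun v hv => (mul_inv_eq_iff_eq_mul.1 (hfix v hv)).symm
  by_cases hYC : Y ≤ C
  · exact Or.inl hYC
  refine Or.inr ?_
  -- the faithful action
  let φ : X ⧸ C →* MulAut W := QuotientGroup.lift C MulAut.conjNormal (fun c hc => by
    refine MonoidHom.mem_ker.2 (MulEquiv.ext fun w => Subtype.ext ?_)
    show c * (w : X) * c⁻¹ = w
    rw [← mem_centralizer_iff.1 (hCW hc) w w.2, mul_inv_cancel_right])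
  haveI : Finite (SemidirectProduct W (X ⧸ C) φ) := Finite.of_equiv _ SemidirectProduct.equivProd.symm
  set π := QuotientGroup.mk' C with hπ
  set inr : X ⧸ C →* SemidirectProduct W (X ⧸ C) φ := SemidirectProduct.inr with hinr
  set Vg : Subgroup (SemidirectProduct W (X ⧸ C) φ) := (SemidirectProduct.inl).range with hVg
  set Hg : Subgroup (SemidirectProduct W (X ⧸ C) φ) := (Y.map π).map inr with hHg
  have hinrinj : Function.Injective inr := SemidirectProduct.inr_injective
  have hVgn : Vg.Normal := by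
    rw [hVg, SemidirectProduct.range_inl_eq_ker_rightHom]; infer_instance
  have hcomm : ∀ (x : X) (w : W),
      inr (π x) * SemidirectProduct.inl w * (inr (π x))⁻¹ =
        SemidirectProduct.inl (MulAut.conjNormal x w) := by
    intro x w
    rw [hinr, ← map_inv, ← SemidirectProduct.inl_aut]
    rfl
  have hcent : ∀ (x : X) (w : W), (inr (π x) * SemidirectProduct.inl w =
      SemidirectProduct.inl w * inr (π x)) ↔ x * w * x⁻¹ = w := by
    intro x w
    rw [← mul_inv_eq_iff_eq_mul, hcomm, SemidirectProduct.inl_injective.eq_iff, Subtype.ext_iff]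
    rfl
  have hfaith : ∀ x : X, inr (π x) ∈ centralizer (Vg : Set _) → π x = 1 := by
    intro x hx
    refine (QuotientGroup.eq_one_iff x).2 (hCeq ▸ mem_centralizer_iff.2 fun w hw => ?_)
    have := (hcent x ⟨w, hw⟩).1 (mem_centralizer_iff.1 hx _ ⟨⟨w, hw⟩, rfl⟩).symm
    exact (mul_inv_eq_iff_eq_mul.1 this).symm
  have hVge : Cfsg.IsElementaryAbelian 2 Vg := by
    refine ⟨Modules.comm_iff.2 ?_, ?_⟩
    · rintro _ ⟨a, rfl⟩ _ ⟨b, rfl⟩
      rw [← map_mul, ← map_mul]
      exact congrArg _ (Subtype.ext (Modules.comm_iff.1 hWe.1 a a.2 b b.2))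
    · rintro _ ⟨a, rfl⟩
      rw [← map_pow, show a ^ 2 = 1 from Subtype.ext (by simpa using hWe.2 a a.2), map_one]
  have hX2 : Cfsg.pCore 2 (X ⧸ C) = ⊥ := by
    rw [eq_bot_iff]
    intro q hq
    obtain ⟨x, rfl⟩ := QuotientGroup.mk'_surjective C q
    have hle := hclaim ((Cfsg.pCore 2 (X ⧸ C)).comap π) inferInstance (fun y hy => by
      obtain ⟨k, hk⟩ := Cores.pCore_isPGroup (p := 2) (G := X ⧸ C) ⟨_, hy⟩
      exact ⟨k, (QuotientGroup.eq_one_iff _).1 (congrArg Subtype.val hk)⟩)
      (fun c hc => by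
        rw [mem_comap, hπ, QuotientGroup.mk'_apply, (QuotientGroup.eq_one_iff c).2 hc]
        exact one_mem _)
    exact mem_bot.2 ((QuotientGroup.eq_one_iff x).2 (hle hq))
  haveI hYbn : (Y.map π).Normal := hYn.map _ (QuotientGroup.mk'_surjective C)
  have hHyp : FF.Hyp 2 Vg Hg := by
    refine ⟨hVge, by rw [@normalizer_eq_top _ _ Vg hVgn]; exact le_top, ?_, ?_⟩
    · rw [eq_bot_iff]
      rintro _ ⟨⟨_, ⟨x, hx, rfl⟩, rfl⟩, hxc⟩
      rw [mem_bot, hfaith x hxc, map_one]
    · let e := (Y.map π).equivMapOfInjective inr hinrinj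
      haveI : Group.IsSolvable ↥Hg :=
        solvable_of_surjective (f := (e : ↥(Y.map π) →* ↥Hg)) e.surjective
      refine PSolv.centralizer_pPrimeCore_le (PSolv.isPSolvable_of_isSolvable inferInstance) ?_
      have h0 : Cfsg.pCore 2 ↥(Y.map π) = ⊥ := by
        have := Cores.map_subtype_pCore_le (p := 2) (N := Y.map π)
        rw [hX2, le_bot_iff] at this
        exact (map_eq_bot_iff_of_injective _ (Subgroup.subtype_injective _)).1 this
      rw [← Cores.map_pCore_equiv e, h0, Subgroup.map_bot]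
  -- images of maximal abelian subgroups of Sylow subgroups
  have hoff : ∀ (S : Sylow 2 X), ∀ A ∈ Modules.maxAbIn (S : Subgroup X), A ≤ Y →
      (A.map π).map inr ≤ Hg ∧ Cfsg.IsBestOffenderOn 2 Vg ((A.map π).map inr) := by
    intro S A hA hAY
    have hle : (A.map π).map inr ≤ Hg := map_mono (map_mono hAY)
    refine ⟨hle, ?_⟩
    set Ab := (A.map π).map inr with hAb
    have hWS : W ≤ (S : Subgroup X) :=
      hWV.trans ((hVQ.trans inf_le_left).trans (Cores.pCore_le_sylow S))
    have hAbc : IsMulCommutative Ab := Modules.comm_map _ (Modules.comm_map _ hA.2.1)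
    have hAp : IsPGroup 2 A := S.isPGroup'.to_le hA.1
    refine bestOffender_of_abelian hHyp hle hAbc ((hAp.map _).map _) fun B hB => ?_
    set B₀ := A ⊓ B.comap (inr.comp π) with hB₀
    have hmapB : (B₀.map π).map inr = B := by
      refine le_antisymm ?_ fun b hb => ?_
      · rintro _ ⟨_, ⟨x, hx, rfl⟩, rfl⟩
        exact (mem_inf.1 hx).2
      · obtain ⟨_, ⟨x, hx, rfl⟩, rfl⟩ := hB hb
        exact ⟨π x, ⟨x, ⟨hx, hb⟩, rfl⟩, rfl⟩
    have hfix : ∀ D : Subgroup X, Nat.card ↥(Vg ⊓ centralizer (((D.map π).map inr :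
        Subgroup _) : Set _)) = Nat.card ↥(W ⊓ centralizer (D : Set X)) := by
      intro D
      have he : Vg ⊓ centralizer (((D.map π).map inr : Subgroup _) : Set _) =
          ((W ⊓ centralizer (D : Set X)).subgroupOf W).map SemidirectProduct.inl := by
        ext z
        constructor
        · rintro ⟨⟨w, rfl⟩, hz⟩
          refine ⟨w, ⟨w.2, mem_centralizer_iff.2 fun d hd => ?_⟩, rfl⟩
          exact mul_inv_eq_iff_eq_mul.1 ((hcent d w).1
            (mem_centralizer_iff.1 hz _ ⟨_, ⟨d, hd, rfl⟩, rfl⟩))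
        · rintro ⟨w, ⟨-, hw⟩, rfl⟩
          refine ⟨⟨w, rfl⟩, mem_centralizer_iff.2 ?_⟩
          rintro _ ⟨_, ⟨d, hd, rfl⟩, rfl⟩
          exact (hcent d w).2 (mul_inv_eq_iff_eq_mul.2 (mem_centralizer_iff.1 hw d hd))
      rw [he, card_map_of_injective SemidirectProduct.inl_injective]
      exact Nat.card_congr (subgroupOfEquivOfLe inf_le_left).toEquiv
    have hker : ∀ D : Subgroup X,
        Nat.card ((D.map π).map inr) * Nat.card ↥(D ⊓ C) = Nat.card D := by
      intro D
      rw [card_map_of_injective hinrinj, hπ]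
      have h1 := Modules.card_mul_relIndex_of_le (inf_le_left : D ⊓ C ≤ D)
      rw [inf_relIndex_left] at h1
      rw [mul_comm, show Nat.card (D.map (QuotientGroup.mk' C)) = C.relIndex D from ?_]
      · exact h1
      · rw [← relIndex_bot_left, ← relIndex_comap (f := QuotientGroup.mk' C),
          MonoidHom.comap_bot, QuotientGroup.ker_mk']
    have hB₀C : B₀ ⊓ C = A ⊓ C := by
      refine le_antisymm (inf_le_inf_right _ inf_le_left) (le_inf (le_inf inf_le_left ?_) inf_le_right)
      intro x hx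
      rw [mem_comap, MonoidHom.comp_apply, hπ, QuotientGroup.mk'_apply,
        (QuotientGroup.eq_one_iff x).2 hx.2, map_one]
      exact one_mem _
    have hmax := Modules.maxAbIn_weight_max hA hWe.1 hWS B₀ inf_le_left
    simp only [Modules.offenderWeight] at hmax ⊢
    rw [← hmapB, hfix, hAb, hfix]
    refine Nat.le_of_mul_le_mul_left ?_ (Nat.card_pos (α := ↥(A ⊓ C)))
    calc Nat.card ↥(A ⊓ C) * (Nat.card ((B₀.map π).map inr) * Nat.card ↥(W ⊓ centralizer (B₀ : Set X)))
        = Nat.card B₀ * Nat.card ↥(W ⊓ centralizer (B₀ : Set X)) := by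
          rw [← hB₀C, ← hker B₀]; ring
      _ ≤ Nat.card A * Nat.card ↥(W ⊓ centralizer (A : Set X)) := hmax
      _ = _ := by rw [← hker A]; ring
  have hgen : Hg = ⨆ A : {A : Subgroup _ // A ≤ Hg ∧ Cfsg.IsBestOffenderOn 2 Vg A}, (A : Subgroup _) := by
    refine le_antisymm ?_ (iSup_le fun A => A.2.1)
    rw [hHg, map_le_iff_le_comap, map_le_iff_le_comap, hY, normalClosure, closure_le]
    intro z hz
    obtain ⟨j, hj, hjz⟩ := Group.mem_conjugatesOfSet_iff.1 hz
    obtain ⟨g, rfl⟩ := isConj_iff.1 hjz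
    have hJg : J.map (MulAut.conj g).toMonoidHom ≤
        ((⨆ A : {A : Subgroup _ // A ≤ Hg ∧ Cfsg.IsBestOffenderOn 2 Vg A},
          (A : Subgroup _)).comap inr).comap π := by
      rw [hJ, Modules.conj_thompsonSubgroupAOf, Modules.thompsonSubgroupAOf_eq_sSup]
      refine sSup_le fun A hA => ?_
      have hAY : A ≤ Y := by
        refine (Modules.le_thompsonSubgroupAOf hA).trans ?_
        rw [← Modules.conj_thompsonSubgroupAOf]
        rintro _ ⟨w, hw, rfl⟩
        exact hYn.conj_mem w (subset_normalClosure hw) g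
      obtain ⟨hle, hbo⟩ := hoff (g • T) A (by
        rw [Sylow.coe_subgroup_smul]; exact hA) hAY
      rw [← map_le_iff_le_comap, ← map_le_iff_le_comap]
      exact le_iSup_of_le ⟨_, hle, hbo⟩ le_rfl
    exact hJg ⟨j, hj, rfl⟩
  have hH1 : Hg ≠ ⊥ := by
    intro h
    rw [hHg, map_eq_bot_iff_of_injective _ hinrinj, Subgroup.map_eq_bot_iff, hπ,
      QuotientGroup.ker_mk'] at h
    exact hYC h
  obtain ⟨-, hE, hind, hsup, -, -⟩ := Cfsg.Agent.S0617.result (p := 2) Vg Hg hVge hHyp.norm
    hHyp.faith hHyp.self hgen hH1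
  -- the product of the blocks
  have key : ∀ (ι : Type _) [Finite ι] (E : ι → Subgroup (SemidirectProduct W (X ⧸ C) φ)),
      (∀ i, Hg ≤ normalizer (E i : Set _)) →
      (∀ i, Nonempty (↥(E i) ≃* Matrix.SpecialLinearGroup (Fin 2) (ZMod 2))) →
      iSupIndep E → ⨆ i, E i = Hg →
      ∃ n, 1 ≤ n ∧ Nonempty (↥Hg ≃* (Fin n → Equiv.Perm (Fin 3))) := by
    intro ι _ E hn hiso hind hsup
    haveI : Fintype ι := Fintype.ofFinite ι
    have hle : ∀ i, E i ≤ Hg := fun i => hsup ▸ le_iSup E i
    have hc : Pairwise fun i j => ∀ x y, x ∈ E i → y ∈ E j → Commute x y := by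
      intro i j hij x y hx hy
      have h1 : ⁅x, y⁆ ∈ E i ⊓ E j := by
        refine mem_inf.2 ⟨?_, ?_⟩
        · rw [commutatorElement_def, show x * y * x⁻¹ * y⁻¹ = x * (y * x⁻¹ * y⁻¹) by group]
          exact mul_mem hx ((mem_normalizer_iff.1 (hn i (hle j hy)) _).1 (inv_mem hx))
        · rw [commutatorElement_def]
          exact mul_mem ((mem_normalizer_iff.1 (hn j (hle i hx)) _).1 hy) (inv_mem hy)
      rw [(hind.pairwiseDisjoint hij).eq_bot, mem_bot] at h1
      exact commutatorElement_eq_one_iff_commute.1 h1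
    let e₀ : ((i : ι) → E i) ≃* ↥Hg :=
      (MonoidHom.ofInjective (Subgroup.injective_noncommPiCoprod_of_iSupIndep hind (hcomm := hc))).trans
        (MulEquiv.subgroupCongr ((Subgroup.noncommPiCoprod_range (hcomm := hc)).trans hsup))
    obtain ⟨s⟩ := Linear.sl_two_two_iso (F := ZMod 2) (ZMod.card 2)
    let e₁ : ((i : ι) → E i) ≃* (ι → Equiv.Perm (Fin 3)) :=
      MulEquiv.piCongrRight fun i => (hiso i).some.trans s
    let f := Fintype.equivFin ι
    let e₂ : (ι → Equiv.Perm (Fin 3)) ≃* (Fin (Fintype.card ι) → Equiv.Perm (Fin 3)) :=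
      { Equiv.arrowCongr f (Equiv.refl _) with map_mul' := fun _ _ => rfl }
    refine ⟨Fintype.card ι, ?_, ⟨e₀.symm.trans (e₁.trans e₂)⟩⟩
    rw [Nat.one_le_iff_ne_zero, Ne, Fintype.card_eq_zero_iff]
    intro hemp
    rw [iSup_of_empty] at hsup
    exact hH1 hsup.symm
  obtain ⟨n, hn, ⟨e⟩⟩ := key _ _ (fun E => (hE E).1) (fun E => (hE E).2.1) hind hsup
  refine ⟨n, hn, ⟨?_⟩⟩
  have hker : (π.comp Y.subtype).ker = C.subgroupOf Y := by
    rw [← MonoidHom.comap_ker, hπ, QuotientGroup.ker_mk']; rfl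
  have hrange : (π.comp Y.subtype).range = Y.map π := by
    rw [MonoidHom.range_comp, range_subtype]
  exact (QuotientGroup.quotientMulEquivOfEq hker.symm).trans
    ((QuotientGroup.quotientKerEquivRange _).trans ((MulEquiv.subgroupCongr hrange).trans
      (((Y.map π).equivMapOfInjective inr hinrinj).trans e)))

end Cfsg.Agent.BaumannFactor
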