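import Cfsg.Agent.FF.Structure
import Cfsg.Agent.Modules.Replacement

/-! In the failure-of-factorization situation for `p = 2` an abelian subgroup of maximal weight is
elementary abelian, hence a best offender. -/

set_option autoImplicit false
set_option linter.style.haveILetI false

open Subgroup
open scoped commutatorElement

namespace Cfsg.Agent.BaumannFactor

variable {G : Type*} [Group G]

/-- The elements of the abelian subgroup `V` whose commutators with `A` lie in `T ≤ V`. -/
def commSub (V A T : Subgroup G) (hV : IsMulCommutative V) (hT : T ≤ V) : Subgroup G where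
  carrier := {v | v ∈ V ∧ ∀ a ∈ A, ⁅v, a⁆ ∈ T}
  one_mem' := ⟨one_mem V, fun a _ => by rw [commutatorElement_one_left]; exact one_mem T⟩
  mul_mem' := fun {v w} hv hw => ⟨mul_mem hv.1 hw.1, fun a ha => by
    rw [Modules.commutatorElement_mul_left,
      Modules.comm_iff.1 hV v hv.1 _ (hT (hw.2 a ha)), mul_inv_cancel_right]
    exact mul_mem (hw.2 a ha) (hv.2 a ha)⟩
  inv_mem' := fun {v} hv => ⟨inv_mem hv.1, fun a ha => by
    have e : ⁅v⁻¹, a⁆ = v⁻¹ * ⁅v, a⁆⁻¹ * v := by simp only [commutatorElement_def]; group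
    rw [e, mul_assoc, Modules.comm_iff.1 hV _ (inv_mem (hT (hv.2 a ha))) v hv.1,
      inv_mul_cancel_left]
    exact inv_mem (hv.2 a ha)⟩

theorem bestOffender_of_abelian [Finite G] {V H A : Subgroup G} (h : FF.Hyp 2 V H) (hAH : A ≤ H)
    (hA : IsMulCommutative A) (hAp : IsPGroup 2 A)
    (hmax : ∀ B ≤ A, Modules.offenderWeight V B ≤ Modules.offenderWeight V A) :
    Cfsg.IsBestOffenderOn 2 V A := by
  classical
  haveI : Fact (Nat.Prime 2) := ⟨Nat.prime_two⟩
  have hVc := h.elem.1
  have hAV := hAH.trans h.norm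
  have hab : ⁅A, A⁆ ≤ centralizer (V : Set G) := by
    rw [commutator_eq_bot_iff_le_centralizer.2 (Modules.comm_le_centralizer hA)]
    exact bot_le
  obtain ⟨h1, h2⟩ := Modules.timmesfeld_replacement hVc hAV hab hmax (le_rfl : V ≤ V)
  set D := ⁅V, A⁆ with hD
  set B := A ⊓ centralizer (D : Set G) with hB
  have hDV : D ≤ V := Modules.commutator_le_of_normalizes hAV
  have hBH : B ≤ H := inf_le_left.trans hAH
  have hBe : Cfsg.IsElementaryAbelian 2 B := by
    refine ⟨Modules.comm_mono inf_le_left hA, fun b hb => ?_⟩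
    have hmem : b ^ 2 ∈ H ⊓ centralizer (V : Set G) := by
      refine ⟨pow_mem (hBH hb) 2, mem_centralizer_iff.2 fun v hv => ?_⟩
      set d := ⁅v, b⁆ with hd
      have hdD : d ∈ D := commutator_mem_commutator hv hb.1
      have hdb : d * b = b * d := mem_centralizer_iff.1 hb.2 d hdD
      have hd2 : d * d = 1 := by rw [← pow_two]; exact h.elem.2 d (hDV hdD)
      have hdv : d * v = v * d := Modules.comm_iff.1 hVc d (hDV hdD) v hv
      have e : b * v = d * v * b := by
        rw [hdv, hd, commutatorElement_def]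
        have hc : v * b * v⁻¹ * b⁻¹ = d := by rw [hd, commutatorElement_def]
        have hc2 : d⁻¹ = d := inv_eq_of_mul_eq_one_right hd2
        have : b * v * b⁻¹ = d⁻¹ * v := by rw [← hc]; group
        calc b * v = (b * v * b⁻¹) * b := by group
          _ = d * v * b := by rw [this, hc2]
          _ = v * d * b := by rw [hdv]
          _ = v * (v * b * v⁻¹ * b⁻¹) * b := by rw [hc]
      rw [pow_two]
      calc v * (b * b) = (d * d) * v * (b * b) := by rw [hd2, one_mul]
        _ = d * (d * v * b) * b := by group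
        _ = d * (b * v) * b := by rw [← e]
        _ = (d * b) * v * b := by group
        _ = b * (d * v * b) := by rw [hdb]; group
        _ = b * b * v := by rw [← e]; group
    rwa [h.faith, mem_bot] at hmem
  have hBoff : Cfsg.IsBestOffenderOn 2 V B :=
    Modules.bestOffender_of_max hBe fun C hC => (hmax C (hC.trans inf_le_left)).trans h2.ge
  let ι := {L : Subgroup G // L ≤ B ∧ Nat.card L = 2 ∧ Cfsg.IsBestOffenderOn 2 V L}
  haveI : Fintype ι := Fintype.ofFinite ι
  have hline : ∀ L : ι, FF.IsLine 2 V H L.1 := fun L => ⟨L.2.1.trans hBH, L.2.2.2, L.2.2.1⟩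
  let W : ι → Subgroup G := fun L => FF.bplane 2 V H L.1
  let E : ι → Subgroup G := fun L => FF.eblock 2 H L.1
  have hAL : ∀ L : ι, A ≤ normalizer (L.1 : Set G) := fun L =>
    ((Modules.comm_le_centralizer hA).trans (centralizer_le (L.2.1.trans inf_le_left))).trans
      (centralizer_le_normalizer _)
  have hAE : ∀ L : ι, A ≤ normalizer (E L : Set G) := by
    intro L a ha
    rw [mem_normalizer_iff_map_conj_eq]
    change (E L).map (MulAut.conj a).toMonoidHom = E L
    simp only [E, FF.eblock]
    rw [Subgroup.map_sup, map_commutator, FF.map_conj_eq (hAL L ha),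
      FF.map_conj_eq (FF.le_normalizer_qcore (hAH ha))]
  have hAW : ∀ L : ι, A ≤ normalizer (W L : Set G) := by
    intro L a ha
    rw [mem_normalizer_iff_map_conj_eq]
    change (W L).map (MulAut.conj a).toMonoidHom = W L
    simp only [W, FF.bplane]
    rw [map_commutator, FF.map_conj_eq (hAV ha)]
    exact congrArg (fun K => ⁅V, K⁆) (FF.map_conj_eq (hAE L ha))
  have hWV : ∀ L : ι, W L ≤ V := fun L => h.bplane_le (hline L)
  let R : ι → Subgroup G := fun L => W L ⊓ centralizer (L.1 : Set G)
  have hRfix : ∀ L : ι, ∀ r ∈ R L, ∀ a ∈ A, ⁅r, a⁆ = 1 := by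
    intro L r hr a ha
    by_contra hne
    have hlt : R L < W L := by
      refine lt_of_le_of_ne inf_le_left fun he => ?_
      have hLC : L.1 ≤ centralizer (W L : Set G) :=
        le_centralizer_iff.1 (he.ge.trans inf_le_right)
      have hbot : L.1 ≤ ⊥ := (h.block_module (hline L)).2.2.2 ▸ le_inf le_sup_right hLC
      have := L.2.2.1
      rw [le_bot_iff.1 hbot, card_bot] at this
      omega
    have hle : Nat.card (R L) ≤ 2 := by
      have hW : Nat.card (W L) = 2 ^ 2 := (h.block_module (hline L)).1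
      obtain ⟨i, hi2, hi⟩ := (Nat.dvd_prime_pow Nat.prime_two).1
        (hW ▸ card_dvd_of_le hlt.le)
      interval_cases i <;> try (rw [hi]; norm_num)
      exact absurd (eq_of_le_of_card_ge hlt.le (by rw [hi, hW])) hlt.ne
    set s := a * r * a⁻¹ with hs
    have hsR : s ∈ R L :=
      (mem_normalizer_iff.1 (Modules.normalizes_inf (hAW L) (Modules.normalizes_centralizer (hAL L))
        ha) r).1 hr
    have hsr : s ≠ r := fun e => hne (commutatorElement_eq_one_iff_mul_comm.2 (by
      calc r * a = s * a := by rw [e]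
        _ = a * r := by rw [hs, inv_mul_cancel_right]))
    have hr1 : r ≠ 1 := fun e => hne (by rw [e, commutatorElement_one_left])
    have hs1 : s ≠ 1 := fun e => hr1 (by
      rw [hs, mul_inv_eq_one, mul_eq_left] at e; exact e)
    haveI : Fintype (R L) := Fintype.ofFinite _
    have h3 : ({1, ⟨r, hr⟩, ⟨s, hsR⟩} : Finset (R L)).card = 3 := by
      rw [Finset.card_insert_of_notMem, Finset.card_pair]
      · exact fun e => hsr (congrArg Subtype.val e).symm
      · simp only [Finset.mem_insert, Finset.mem_singleton, Subtype.ext_iff, OneMemClass.coe_one]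
        exact fun e => e.elim (fun e => hr1 e.symm) (fun e => hs1 e.symm)
    have := Finset.card_le_univ ({1, ⟨r, hr⟩, ⟨s, hsR⟩} : Finset (R L))
    rw [h3, ← Nat.card_eq_fintype_card] at this
    omega
  have hWR : ∀ L : ι, ∀ w ∈ W L, ∀ a ∈ A, ⁅w, a⁆ ∈ R L := by
    intro L w hw a ha
    by_cases hwR : w ∈ R L
    · rw [hRfix L w hwR a ha]; exact one_mem _
    have hi : ((R L).subgroupOf (W L)).index = 2 := by
      have h3 : (V ⊓ centralizer (L.1 : Set G)).relIndex (W L) ∣ 2 := by
        obtain ⟨-, hl⟩ := h.line_data (hline L).le (hline L).off (hline L).card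
        have := relIndex_le_of_le_right (H := V ⊓ centralizer (L.1 : Set G)) (hWV L)
          (by rw [hl]; norm_num)
        rw [hl] at this
        have hpos : (V ⊓ centralizer (L.1 : Set G)).relIndex (W L) ≠ 0 := index_ne_zero_of_finite
        interval_cases hk : (V ⊓ centralizer (L.1 : Set G)).relIndex (W L) <;> first | omega | norm_num
      have he : (V ⊓ centralizer (L.1 : Set G)).relIndex (W L) = (R L).relIndex (W L) := by
        rw [← inf_relIndex_right (V ⊓ centralizer (L.1 : Set G)) (W L)]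
        congr 1
        ext x
        simp only [R, mem_inf]
        exact ⟨fun hx => ⟨hx.2, hx.1.2⟩, fun hx => ⟨⟨hWV L hx.1, hx.2⟩, hx.1⟩⟩
      rw [he] at h3
      rcases (Nat.dvd_prime Nat.prime_two).1 h3 with h4 | h4
      · exact absurd (relIndex_eq_one.1 h4 hw) hwR
      · exact h4
    have hu : a * w⁻¹ * a⁻¹ ∈ W L := (mem_normalizer_iff.1 (hAW L ha) _).1 (inv_mem hw)
    have huR : a * w⁻¹ * a⁻¹ ∉ R L := fun hu' => hwR (inv_mem_iff.1
      ((mem_normalizer_iff.1 (Modules.normalizes_inf (hAW L)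
        (Modules.normalizes_centralizer (hAL L)) ha) _).2 hu'))
    have := (mul_mem_iff_of_index_two hi (a := ⟨w, hw⟩) (b := ⟨_, hu⟩)).2
      (iff_of_false (fun e => hwR (mem_subgroupOf.1 e)) (fun e => huR (mem_subgroupOf.1 e)))
    rw [mem_subgroupOf] at this
    simpa [commutatorElement_def, mul_assoc] using this
  -- decomposition of V
  have hdec : ∀ s : Finset ι, V ≤ (⨆ L ∈ s, W L) ⊔ (V ⊓ ⨅ L ∈ s, centralizer (E L : Set G)) := by
    intro s
    induction s using Finset.induction_on with
    | empty => exact le_sup_of_le_right (le_inf le_rfl (by simp))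
    | insert L s hLs ihs =>
      refine ihs.trans (sup_le (le_sup_of_le_left (biSup_mono fun M hM =>
        Finset.mem_insert_of_mem hM)) ?_)
      intro v hv
      obtain ⟨hvV, hvC⟩ := mem_inf.1 hv
      simp only [mem_iInf] at hvC
      by_cases hex : ∃ M ∈ s, E M = E L
      · obtain ⟨M, hM, hME⟩ := hex
        refine mem_sup_right (mem_inf.2 ⟨hvV, mem_iInf.2 fun N => mem_iInf.2 fun hN => ?_⟩)
        rcases Finset.mem_insert.1 hN with rfl | hN
        · exact hME ▸ hvC M hM
        · exact hvC N hN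
      push Not at hex
      obtain ⟨w, hw, f, hf, hwf⟩ := Coprime.exists_mul_of_mem_sup
        (h.le_normalizer_sub (hWV L) (inf_le_left : FF.bfixed 2 V H L.1 ≤ V))
        ((h.block_module (hline L)).2.2.1.symm ▸ hvV)
      rw [hwf]
      refine mul_mem (mem_sup_left (mem_iSup_of_mem L (mem_iSup_of_mem (Finset.mem_insert_self L s) hw)))
        (mem_sup_right (mem_inf.2 ⟨hf.1, mem_iInf.2 fun N => mem_iInf.2 fun hN => ?_⟩))
      rcases Finset.mem_insert.1 hN with rfl | hN
      · exact hf.2
      · have hwN : w ∈ centralizer (E N : Set G) :=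
          le_centralizer_iff.1 (h.eblock_le_centralizer_bplane (hline N) (hline L) (hex N hN)) hw
        have := mul_mem (inv_mem hwN) (hvC N hN)
        rwa [hwf, inv_mul_cancel_left] at this
  set U := V ⊓ ⨅ L ∈ (Finset.univ : Finset ι), centralizer (E L : Set G) with hU
  have hUV : U ≤ V := inf_le_left
  have hAU : A ≤ normalizer (U : Set G) := by
    have hsub : ∀ g ∈ A, U.map (MulAut.conj g).toMonoidHom ≤ U := by
      rintro g hg _ ⟨x, hx, rfl⟩
      obtain ⟨hxV, hxC⟩ := mem_inf.1 hx
      simp only [mem_iInf] at hxC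
      refine mem_inf.2 ⟨(mem_normalizer_iff.1 (hAV hg) x).1 hxV,
        mem_iInf.2 fun L => mem_iInf.2 fun hL => ?_⟩
      exact (mem_normalizer_iff.1 (Modules.normalizes_centralizer (hAE L) hg) x).1 (hxC L hL)
    intro g hg
    rw [mem_normalizer_iff]
    refine fun x => ⟨fun hx => hsub g hg ⟨x, hx, rfl⟩, fun hx => ?_⟩
    have := hsub g⁻¹ (inv_mem hg) ⟨_, hx, rfl⟩
    simpa [mul_assoc] using this
  have hT : (⨆ L, R L) ⊔ ⁅U, A⁆ ≤ V :=
    sup_le (iSup_le fun L => inf_le_left.trans (hWV L))
      ((commutator_mono hUV le_rfl).trans hDV)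
  have hDT : D ≤ (⨆ L, R L) ⊔ ⁅U, A⁆ := by
    have hle : V ≤ commSub V A _ hVc hT := by
      refine (hdec Finset.univ).trans (sup_le (iSup_le fun L => iSup_le fun _ => ?_) ?_)
      · exact fun w hw => ⟨hWV L hw, fun a ha => mem_sup_left (mem_iSup_of_mem L (hWR L w hw a ha))⟩
      · exact fun u hu => ⟨hUV hu, fun a ha => mem_sup_right (commutator_mem_commutator hu ha)⟩
    exact commutator_le.2 fun v hv a ha => (hle hv).2 a ha
  have hUA2 : ⁅⁅U, A⁆, A⁆ ≤ V := (commutator_mono ((commutator_mono hUV le_rfl).trans hDV) le_rfl).trans hDV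
  have hDA : ⁅D, A⁆ ≤ ⁅⁅U, A⁆, A⁆ := by
    have hle : (⨆ L, R L) ⊔ ⁅U, A⁆ ≤ commSub V A _ hVc hUA2 := by
      refine sup_le (iSup_le fun L => fun r hr => ⟨hWV L hr.1, fun a ha => ?_⟩) ?_
      · rw [hRfix L r hr a ha]; exact one_mem _
      · exact fun u hu => ⟨hT (mem_sup_right hu), fun a ha => commutator_mem_commutator hu ha⟩
    exact commutator_le.2 fun v hv a ha => (hle (hDT hv)).2 a ha
  have hDA' : ⁅D, A⁆ ≤ V := (commutator_mono hDV le_rfl).trans hDV
  have hUB : U ≤ V ⊓ centralizer (B : Set G) := by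
    refine le_inf hUV (le_centralizer_iff.1 ((h.le_iSup_lines B hBH hBoff).trans
      (iSup_le fun L => le_centralizer_iff.1 ?_)))
    exact inf_le_right.trans ((biInf_le _ (Finset.mem_univ (⟨L.1, L.2⟩ : ι))).trans
      (centralizer_le (le_sup_right : L.1 ≤ E ⟨L.1, L.2⟩)))
  have hUA : ⁅U, A⁆ ≤ ⁅D, A⁆ := by
    have hle : D ⊔ (V ⊓ centralizer (A : Set G)) ≤ commSub V A _ hVc hDA' := by
      refine sup_le (fun d hd => ⟨hDV hd, fun a ha => commutator_mem_commutator hd ha⟩)
        (fun d hd => ⟨hd.1, fun a ha => ?_⟩)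
      rw [commutatorElement_eq_one_iff_mul_comm.2 (mem_centralizer_iff.1 hd.2 a ha).symm]
      exact one_mem _
    exact commutator_le.2 fun u hu a ha => (hle (h1 ▸ hUB hu)).2 a ha
  have hbot : ⁅U, A⁆ = ⊥ := by
    refine Modules.commutator_eq_bot_of_le_commutator
      ((Modules.elemAb_isPGroup h.elem).to_le hUV) hAU (fun a ha => ?_) (hUA.trans hDA)
    obtain ⟨k, hk⟩ := hAp ⟨a, ha⟩
    refine ⟨k, ?_⟩
    have := congrArg Subtype.val hk
    simp only [SubmonoidClass.coe_pow, OneMemClass.coe_one] at this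
    rw [this]
    exact one_mem _
  have hDA0 : ⁅D, A⁆ = ⊥ := by
    rw [← le_bot_iff]
    refine hDA.trans ?_
    rw [hbot, commutator_bot_left]
  have hAB : B = A := inf_eq_left.2
    (le_centralizer_iff.1 (commutator_eq_bot_iff_le_centralizer.1 hDA0))
  exact hAB ▸ hBoff

end Cfsg.Agent.BaumannFactor
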